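import Mathlib
import Cfsg.Agent.H84.Shult2.Group

/-! Gross: the `2`-length is at most `2 e - 1`. -/

set_option autoImplicit false

namespace Cfsg.Agent.H84.Shult2

universe u

open Cfsg.Agent.H20

/-- Elementary abelian Sylow `2`-subgroups give `2`-length at most one. -/
theorem base {G : Type u} [Group G] [Finite G] [Group.IsSolvable G]
    (hexp : ∀ (P : Sylow 2 G), ∀ x ∈ (P : Subgroup G), x ^ 2 ^ 1 = 1) :
    Cfsg.PLengthLE 2 1 G := by
  haveI : Fact (Nat.Prime 2) := ⟨Nat.prime_two⟩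
  haveI := H19.pPrimeCore_normal 2 G
  haveI := H19.pCore_normal 2 (G ⧸ Cfsg.pPrimeCore 2 G)
  refine TwoE.pLengthLE_succ (n := 0) (PLen.pLengthLE_zero_of_coprime ?_)
  set q := QuotientGroup.mk' (Cfsg.pPrimeCore 2 G) with hq
  obtain ⟨P⟩ : Nonempty (Sylow 2 G) := inferInstance
  set P1 := P.mapSurjective (f := q) (QuotientGroup.mk'_surjective _) with hP1
  have hP1le : (P1 : Subgroup (G ⧸ Cfsg.pPrimeCore 2 G)) ≤
      Cfsg.pCore 2 (G ⧸ Cfsg.pPrimeCore 2 G) := by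
    refine le_trans ?_ (H19.centralizer_pCore_le (H19.pPrimeCore_quotient_pPrimeCore 2))
    rintro _ ⟨a, ha, rfl⟩
    rw [Subgroup.mem_centralizer_iff]
    intro y hy
    obtain ⟨b, hb, rfl⟩ := H19.pCore_le_sylow P1 hy
    rw [← map_mul, ← map_mul]
    congr 1
    have h2 : ∀ v ∈ (P : Subgroup G), v⁻¹ = v := fun v hv => inv_eq_of_mul_eq_one_right (by
      have := hexp P v hv
      rwa [pow_one, sq] at this)
    calc b * a = (b * a)⁻¹ := (h2 _ (mul_mem hb ha)).symm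
      _ = a * b := by rw [mul_inv_rev, h2 a ha, h2 b hb]
  rw [Nat.coprime_comm, Nat.Prime.coprime_iff_not_dvd Nat.prime_two,
    ← Subgroup.index_eq_card]
  exact fun h => P1.not_dvd_index (h.trans (Subgroup.index_dvd_of_le hP1le))

/-- Gross's bound. -/
theorem gross_two_length (e : ℕ) : ∀ {G : Type u} [Group G] [Finite G], Group.IsSolvable G →
    1 ≤ e → (∀ (P : Sylow 2 G), ∀ x ∈ (P : Subgroup G), x ^ 2 ^ e = 1) →
    Cfsg.PLengthLE 2 (2 * e - 1) G := by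
  haveI : Fact (Nat.Prime 2) := ⟨Nat.prime_two⟩
  induction e with
  | zero => intro G _ _ _ h; omega
  | succ e ih =>
    intro G _ _ hG _ hexp
    rcases Nat.eq_zero_or_pos e with rfl | he
    · exact base hexp
    haveI := H19.pPrimeCore_normal 2 G
    haveI := H19.pCore_normal 2 (G ⧸ Cfsg.pPrimeCore 2 G)
    rw [show 2 * (e + 1) - 1 = 2 * e - 1 + 1 + 1 by omega]
    apply TwoE.pLengthLE_succ
    haveI := H19.pPrimeCore_normal 2
      ((G ⧸ Cfsg.pPrimeCore 2 G) ⧸ Cfsg.pCore 2 (G ⧸ Cfsg.pPrimeCore 2 G))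
    haveI := H19.pCore_normal 2
      (((G ⧸ Cfsg.pPrimeCore 2 G) ⧸ Cfsg.pCore 2 (G ⧸ Cfsg.pPrimeCore 2 G)) ⧸
        Cfsg.pPrimeCore 2 ((G ⧸ Cfsg.pPrimeCore 2 G) ⧸ Cfsg.pCore 2 (G ⧸ Cfsg.pPrimeCore 2 G)))
    apply TwoE.pLengthLE_succ
    refine ih inferInstance he ?_
    intro P z hz
    refine exponent_drop (H19.pPrimeCore_quotient_pPrimeCore 2) ?_ z P hz
    intro P' x hx
    obtain ⟨P'', rfl⟩ :=
      Sylow.mapSurjective_surjective (QuotientGroup.mk'_surjective (Cfsg.pPrimeCore 2 G)) 2 P'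
    obtain ⟨x', hx', rfl⟩ := hx
    rw [← map_pow, hexp P'' x' hx', map_one]

end Cfsg.Agent.H84.Shult2
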